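import Cfsg.Agent.OddHalf.D7F4Ex.Chart

/-!
# ODD, D4, `F₄(q)`: three short roots `r`, `s`, `d = r + s`

Tables, and the groups `SupE E S` generated by the root elements `E c u`, `c ∈ S`.
-/

set_option autoImplicit false
set_option Elab.async false
set_option linter.unusedSectionVars false

namespace Cfsg.Agent.OddHalf.D4F4

open Cfsg.Agent.OddHalf.D7F4.Model Cfsg.Agent.OddHalf.D7F4Ex

/-- the short root `½(-1,1,1,1)` -/
def rs : Fin 4 → ℤ := sc ![-1, 1, 1, 1]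

/-- the short root `½(1,1,1,1)` -/
def rd : Fin 4 → ℤ := sc ![1, 1, 1, 1]

/-- short roots `c` with `(c, a) > 0`, long roots with `(c, a) ≥ 0` -/
def psi (a : Fin 4 → ℤ) : Set (Fin 4 → ℤ) := {c | c ∈ rts ∧ ((B c c = 2 ∧ 0 < B c a) ∨ (B c c = 4 ∧ 0 ≤ B c a))}

instance (a c : Fin 4 → ℤ) : Decidable (c ∈ psi a) :=
  inferInstanceAs (Decidable (c ∈ rts ∧ ((B c c = 2 ∧ 0 < B c a) ∨ (B c c = 4 ∧ 0 ≤ B c a))))

theorem rs_mem : rs ∈ rts := by decide +kernel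
theorem rd_mem : rd ∈ rts := by decide +kernel
theorem n_s0 : B s0 s0 = 2 := by decide +kernel
theorem n_rs : B rs rs = 2 := by decide +kernel
theorem n_rd : B rd rd = 2 := by decide +kernel
theorem b_rs : B s0 rs = -1 := by decide +kernel
theorem b_sr : B rs s0 = -1 := by decide +kernel
theorem e_rs : s0 + rs = rd := by decide +kernel
theorem e_sr : rs + s0 = rd := by decide +kernel
theorem ne_rs : s0 ≠ -rs := by decide +kernel
theorem ne_sr : rs ≠ -s0 := by decide +kernel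
theorem ne_rd : s0 ≠ rd := by decide +kernel
theorem ne_sd : rs ≠ rd := by decide +kernel
theorem f_rd : rfl' rs rd = s0 := by decide +kernel
theorem f_dr : rfl' rs s0 = rd := by decide +kernel
theorem g_sd : rfl' s0 rd = rs := by decide +kernel
theorem g_ds : rfl' s0 rs = rd := by decide +kernel
theorem dd_s0 : dd s0 = ![2, 0, 0, 0] := by decide +kernel
theorem dd_rs : dd rs = ![-1, 1, 1, 1] := by decide +kernel
theorem dd_rd : dd rd = ![1, 1, 1, 1] := by decide +kernel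
/-- a list in two parts (the checks below are split to keep the memory of the kernel small) -/
theorem rts_split {P : (Fin 4 → ℤ) → Prop} (l : List (Fin 4 → ℤ)) (n : ℕ) (h1 : ∀ a ∈ l.take n, P a)
    (h2 : ∀ a ∈ l.drop n, P a) : ∀ a ∈ l, P a := by
  intro a ha
  rw [← List.take_append_drop n l, List.mem_append] at ha
  exact ha.elim (h1 a) (h2 a)

theorem rfl_mem_0 : ∀ a ∈ rts.take 8, ∀ b ∈ rts, rfl' a b ∈ rts := by decide +kernel
theorem rfl_mem_1 : ∀ a ∈ (rts.drop 8).take 8, ∀ b ∈ rts, rfl' a b ∈ rts := by decide +kernel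
theorem rfl_mem_2 : ∀ a ∈ ((rts.drop 8).drop 8).take 8, ∀ b ∈ rts, rfl' a b ∈ rts := by decide +kernel
theorem rfl_mem_3 : ∀ a ∈ (((rts.drop 8).drop 8).drop 8).take 8, ∀ b ∈ rts, rfl' a b ∈ rts := by decide +kernel
theorem rfl_mem_4 : ∀ a ∈ ((((rts.drop 8).drop 8).drop 8).drop 8).take 8, ∀ b ∈ rts, rfl' a b ∈ rts := by decide +kernel
theorem rfl_mem_5 : ∀ a ∈ ((((rts.drop 8).drop 8).drop 8).drop 8).drop 8, ∀ b ∈ rts, rfl' a b ∈ rts := by decide +kernel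
theorem rfl_mem : ∀ a ∈ rts, ∀ b ∈ rts, rfl' a b ∈ rts :=
  rts_split _ 8 rfl_mem_0 (rts_split _ 8 rfl_mem_1 (rts_split _ 8 rfl_mem_2 (rts_split _ 8 rfl_mem_3
    (rts_split _ 8 rfl_mem_4 rfl_mem_5))))
theorem rfl_rfl_0 : ∀ a ∈ rts.take 16, ∀ b ∈ rts, rfl' a (rfl' a b) = b := by decide +kernel
theorem rfl_rfl_1 : ∀ a ∈ (rts.drop 16).take 16, ∀ b ∈ rts, rfl' a (rfl' a b) = b := by decide +kernel
theorem rfl_rfl_2 : ∀ a ∈ (rts.drop 16).drop 16, ∀ b ∈ rts, rfl' a (rfl' a b) = b := by decide +kernel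
theorem rfl_rfl : ∀ a ∈ rts, ∀ b ∈ rts, rfl' a (rfl' a b) = b :=
  rts_split _ 16 rfl_rfl_0 (rts_split _ 16 rfl_rfl_1 rfl_rfl_2)

theorem psi_mem {a c : Fin 4 → ℤ} (h : c ∈ psi a) : c ∈ rts := h.1

/-- the elements of `psi s0` -/
theorem psi_s0 : ∀ c ∈ rts, c ∈ psi s0 → c = s0 ∨ (∃ j, c = rv j) ∨ (∃ i, c = rz i) ∨ ∃ j k : J, j.1 ≠ k.1 ∧ c = rl j k := by
  decide +kernel

theorem psi_s0' : s0 ∈ psi s0 ∧ (∀ j, rv j ∈ psi s0) ∧ (∀ i, rz i ∈ psi s0) ∧ ∀ j k : J, j.1 ≠ k.1 → rl j k ∈ psi s0 := by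
  decide +kernel

/-- `P_d = P_r ^ n`, `n` over the reflection in `s` -/
theorem psi_d : ∀ c ∈ rts, c ∈ psi rd → rfl' rs c ∈ psi s0 := by decide +kernel
/-- `P_s = P_d ^ m`, `m` over the reflection in `r` -/
theorem psi_s : ∀ c ∈ rts, c ∈ psi rs → rfl' rs (rfl' s0 c) ∈ psi s0 := by decide +kernel
theorem psi_rs : ∀ c ∈ rts, c ∈ psi s0 → c ∈ psi rs → c ∈ psi rd := by decide +kernel

theorem r_psi_d : s0 ∈ psi rd := by decide +kernel
theorem s_psi_d : rs ∈ psi rd := by decide +kernel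
theorem d_psi_r : rd ∈ psi s0 := by decide +kernel
theorem d_psi_s : rd ∈ psi rs := by decide +kernel

/-- `X_s` normalises the group of `psi r ∩ psi d` -/
theorem inv_s : ∀ c ∈ rts, c ∈ psi s0 → c ∈ psi rd → B rs c < 0 →
    (B c c = 2 ∧ rs ≠ -c ∧ rs + c ∈ psi s0 ∧ rs + c ∈ psi rd) ∨
    (B c c = 4 ∧ B c rs = -2 ∧ c + rs ∈ psi s0 ∧ c + rs ∈ psi rd ∧ c + rs + rs ∈ psi s0 ∧ c + rs + rs ∈ psi rd) := by
  decide +kernel

/-- `X_r` normalises the group of `psi s ∩ psi d` -/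
theorem inv_r : ∀ c ∈ rts, c ∈ psi rs → c ∈ psi rd → B s0 c < 0 →
    (B c c = 2 ∧ s0 ≠ -c ∧ s0 + c ∈ psi rs ∧ s0 + c ∈ psi rd) ∨
    (B c c = 4 ∧ B c s0 = -2 ∧ c + s0 ∈ psi rs ∧ c + s0 ∈ psi rd ∧ c + s0 + s0 ∈ psi rs ∧ c + s0 + s0 ∈ psi rd) := by
  decide +kernel

end Cfsg.Agent.OddHalf.D4F4
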